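import Mathlib

/-!
# Centralizer of an element of primitive prime order
-/

set_option autoImplicit false

namespace CfsgLib.Centralizers

universe u

variable {F : Type u} [Field F] [Fintype F] {n : ℕ}

theorem centralizer_primitive {p r : ℕ} [Fact p.Prime] [CharP F p] (hr : r.Prime) (hrp : r ≠ p) (hn : 1 ≤ n)
    (hi : orderOf (Fintype.card F : ZMod r) = n) (x : GL (Fin n) F) (hx : orderOf x = r) :
    IsCyclic ↥(Subgroup.centralizer ({x} : Set (GL (Fin n) F))) ∧
      Nat.card ↥(Subgroup.centralizer ({x} : Set (GL (Fin n) F))) = Fintype.card F ^ n - 1 := by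
  classical
  haveI := Fact.mk hr
  set M : Matrix (Fin n) (Fin n) F := (x : Matrix (Fin n) (Fin n) F) with hM
  set q := Fintype.card F with hq
  have hq0 : 0 < q := Fintype.card_pos
  -- invariant subspaces without fixed points are everything
  have hbig : ∀ W : Submodule F (Fin n → F), (∀ w ∈ W, M.mulVec w ∈ W) → (∀ w ∈ W, M.mulVec w = w → w = 0) →
      W = ⊥ ∨ W = ⊤ := by
    intro W hW hfix
    let σ : Equiv.Perm {w : W // w ≠ 0} :=
      Equiv.ofBijective (fun w => ⟨⟨M.mulVec (w.1 : Fin n → F), hW _ w.1.2⟩, fun h => w.2 (by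
        have h1 : M.mulVec (w.1 : Fin n → F) = 0 := congrArg Subtype.val h
        have h2 := congrArg ((x⁻¹ : GL (Fin n) F) : Matrix (Fin n) (Fin n) F).mulVec h1
        rw [Matrix.mulVec_mulVec, hM, ← Units.val_mul, inv_mul_cancel, Units.val_one, Matrix.one_mulVec, Matrix.mulVec_zero] at h2
        exact Subtype.ext h2)⟩) (Finite.injective_iff_bijective.mp fun a b hab => by
        have h1 : M.mulVec (a.1 : Fin n → F) = M.mulVec (b.1 : Fin n → F) := congrArg (fun z => ((z.1 : W) : Fin n → F)) hab
        have h2 := congrArg ((x⁻¹ : GL (Fin n) F) : Matrix (Fin n) (Fin n) F).mulVec h1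
        rw [Matrix.mulVec_mulVec, Matrix.mulVec_mulVec, hM, ← Units.val_mul, inv_mul_cancel, Units.val_one,
          Matrix.one_mulVec, Matrix.one_mulVec] at h2
        exact Subtype.ext (Subtype.ext h2))
    have hσpow : ∀ (k : ℕ) (w : {w : W // w ≠ 0}), (((σ ^ k) w).1 : Fin n → F) = (M ^ k).mulVec (w.1 : Fin n → F) := by
      intro k
      induction k with
      | zero => intro w; simp
      | succ k ih =>
        intro w
        rw [pow_succ', Equiv.Perm.mul_apply, pow_succ' M, ← Matrix.mulVec_mulVec, ← ih w]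
        rfl
    have hσr : σ ^ r = 1 := Equiv.ext fun w => Subtype.ext (Subtype.ext (by
      rw [hσpow, hM, ← Units.val_pow_eq_pow_val, ← hx, pow_orderOf_eq_one, Units.val_one, Matrix.one_mulVec]
      rfl))
    have hP : IsPGroup r (Subgroup.zpowers σ) := by
      rw [IsPGroup.iff_card]
      rcases (Nat.dvd_prime hr).mp (orderOf_dvd_of_pow_eq_one hσr) with h | h
      · exact ⟨0, by rw [Nat.card_zpowers, h, pow_zero]⟩
      · exact ⟨1, by rw [Nat.card_zpowers, h, pow_one]⟩
    have hmod := hP.card_modEq_card_fixedPoints {w : W // w ≠ 0}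
    have hempty : MulAction.fixedPoints (Subgroup.zpowers σ) {w : W // w ≠ 0} = ∅ := by
      refine Set.eq_empty_iff_forall_notMem.mpr fun w hw => w.2 (Subtype.ext (hfix _ w.1.2 ?_))
      have := hw ⟨σ, Subgroup.mem_zpowers σ⟩
      exact congrArg (fun z => ((z.1 : W) : Fin n → F)) (this : σ w = w)
    rw [hempty] at hmod
    have hcard : Nat.card {w : W // w ≠ 0} = q ^ Module.finrank F W - 1 := by
      rw [Nat.card_eq_fintype_card, Fintype.card_subtype_compl, Fintype.card_subtype_eq,
        Module.card_eq_pow_finrank (K := F) (V := W)]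
    have hdvd : r ∣ q ^ Module.finrank F W - 1 := by
      rw [← hcard]
      exact Nat.modEq_zero_iff_dvd.mp (by simpa using hmod)
    have hnd : n ∣ Module.finrank F W := by
      refine (dvd_of_eq hi.symm).trans (orderOf_dvd_of_pow_eq_one ?_)
      have h2 : ((q ^ Module.finrank F W - 1 : ℕ) : ZMod r) = 0 := (ZMod.natCast_eq_zero_iff _ _).mpr hdvd
      rwa [Nat.cast_sub (Nat.one_le_pow _ _ hq0), Nat.cast_pow, Nat.cast_one, sub_eq_zero] at h2
    have hle : Module.finrank F W ≤ n := (Submodule.finrank_le W).trans (Module.finrank_fin_fun (R := F)).le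
    rcases Nat.eq_zero_or_pos (Module.finrank F W) with h0 | h0
    · exact Or.inl (Submodule.finrank_eq_zero.mp h0)
    · refine Or.inr (Submodule.eq_top_of_finrank_eq ?_)
      rw [Module.finrank_fin_fun]
      exact le_antisymm hle (Nat.le_of_dvd h0 hnd)
  -- no fixed vectors
  have hnofix : ∀ w, M.mulVec w = w → w = 0 := by
    set D : (Fin n → F) →ₗ[F] (Fin n → F) := Matrix.mulVecLin (M - 1) with hD
    have hDapp : ∀ w, D w = M.mulVec w - w := fun w => by
      rw [hD, Matrix.mulVecLin_apply, Matrix.sub_mulVec, Matrix.one_mulVec]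
    have hrfix : ∀ w ∈ LinearMap.range D, M.mulVec w = w → w = 0 := by
      rintro _ ⟨y, rfl⟩ hfix
      have hk : ∀ k : ℕ, (M ^ k).mulVec y = y + (k : F) • D y := by
        intro k
        induction k with
        | zero => simp
        | succ k ih =>
          rw [pow_succ', ← Matrix.mulVec_mulVec, ih, Matrix.mulVec_add, Matrix.mulVec_smul, hfix, Nat.cast_succ, add_smul,
            one_smul, hDapp y]
          abel
      have := hk r
      rw [hM, ← Units.val_pow_eq_pow_val, ← hx, pow_orderOf_eq_one, Units.val_one, Matrix.one_mulVec, hx,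
        left_eq_add, smul_eq_zero] at this
      refine this.resolve_left fun h => hrp ?_
      rw [CharP.cast_eq_zero_iff F p] at h
      exact ((Nat.prime_dvd_prime_iff_eq (Fact.out : p.Prime) hr).mp h).symm
    have htop : LinearMap.range D = ⊤ := by
      refine (hbig _ ?_ hrfix).resolve_left fun h => ?_
      · rintro _ ⟨y, rfl⟩
        exact ⟨M.mulVec y, by rw [hDapp, hDapp, Matrix.mulVec_sub]⟩
      · have hx1 : x = 1 := by
          refine Units.ext ?_
          have : D = 0 := LinearMap.range_eq_bot.mp h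
          rw [← sub_eq_zero, Units.val_one]
          apply Matrix.toLin'.injective
          rw [map_zero, ← this, hD, hM]
          rfl
        rw [hx1, orderOf_one] at hx
        exact hr.one_lt.ne hx
    exact fun w hw => hrfix w (htop ▸ Submodule.mem_top) hw
  have hirr : ∀ W : Submodule F (Fin n → F), (∀ w ∈ W, M.mulVec w ∈ W) → W = ⊥ ∨ W = ⊤ :=
    fun W hW => hbig W hW fun w _ => hnofix w
  -- the commutant
  set A := Algebra.adjoin F ({M} : Set (Matrix (Fin n) (Fin n) F)) with hA
  have hAcomm : ∀ a ∈ A, a * M = M * a := fun a ha => by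
    have h : Commute M a := Algebra.commute_of_mem_adjoin_of_forall_mem_commute ha (fun b hb => by
      rw [Set.mem_singleton_iff.mp hb]; exact Commute.refl M)
    exact h.eq.symm
  let v : Fin n → F := Pi.single ⟨0, hn⟩ 1
  have hv : v ≠ 0 := fun h => one_ne_zero (by simpa [v] using congrFun h ⟨0, hn⟩ : (1 : F) = 0)
  have hinj : ∀ a : Matrix (Fin n) (Fin n) F, a * M = M * a → a ≠ 0 → ∀ w, a.mulVec w = 0 → w = 0 := by
    intro a ha ha0 w hw
    have hker := hirr (LinearMap.ker (Matrix.mulVecLin a)) (fun y hy => by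
      rw [LinearMap.mem_ker, Matrix.mulVecLin_apply] at hy ⊢
      rw [Matrix.mulVec_mulVec, ha, ← Matrix.mulVec_mulVec, hy, Matrix.mulVec_zero])
    rcases hker with h | h
    · exact Submodule.mem_bot F |>.mp (h ▸ (LinearMap.mem_ker.mpr hw) : w ∈ (⊥ : Submodule F (Fin n → F)))
    · exfalso
      apply ha0
      apply Matrix.toLin'.injective
      rw [map_zero]
      exact LinearMap.ext fun y => (h ▸ Submodule.mem_top : y ∈ LinearMap.ker (Matrix.mulVecLin a))
  let ev : A →ₗ[F] (Fin n → F) :=
    { toFun := fun a => (a : Matrix (Fin n) (Fin n) F).mulVec v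
      map_add' := fun a b => Matrix.add_mulVec _ _ _
      map_smul' := fun c a => Matrix.smul_mulVec _ _ _ }
  have hev : LinearMap.range ev = ⊤ := by
    refine (hirr _ ?_).resolve_left fun h => hv ?_
    · rintro _ ⟨a, rfl⟩
      exact ⟨⟨M, Algebra.subset_adjoin (Set.mem_singleton M)⟩ * a, (Matrix.mulVec_mulVec v M _).symm⟩
    · have h1 : v ∈ LinearMap.range ev := ⟨1, Matrix.one_mulVec v⟩
      rwa [h, Submodule.mem_bot] at h1
  have hpoly : ∀ g : Matrix (Fin n) (Fin n) F, g * M = M * g → g ∈ A := by
    intro g hg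
    obtain ⟨a, ha⟩ : g.mulVec v ∈ LinearMap.range ev := hev ▸ Submodule.mem_top
    by_contra hga
    have hne : g - (a : Matrix (Fin n) (Fin n) F) ≠ 0 := fun h => hga (sub_eq_zero.mp h ▸ a.2)
    refine hv (hinj _ ?_ hne v ?_)
    · rw [sub_mul, mul_sub, hg, hAcomm _ a.2]
    · rw [Matrix.sub_mulVec, sub_eq_zero]; exact ha.symm
  haveI : IsDomain A := by
    haveI : NeZero n := ⟨by omega⟩
    haveI : Nontrivial A := ⟨⟨0, 1, fun h => zero_ne_one (congrArg Subtype.val h :)⟩⟩
    haveI : NoZeroDivisors A := ⟨fun {a b} hab => by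
      by_contra hh
      push Not at hh
      have hab' : (a : Matrix (Fin n) (Fin n) F) * (b : Matrix (Fin n) (Fin n) F) = 0 := congrArg Subtype.val hab
      apply hh.2
      apply Subtype.ext
      apply Matrix.toLin'.injective
      rw [show ((0 : A) : Matrix (Fin n) (Fin n) F) = 0 from rfl, map_zero]
      refine LinearMap.ext fun y => hinj _ (hAcomm _ a.2) (fun h => hh.1 (Subtype.ext h)) _ ?_
      rw [Matrix.toLin'_apply, Matrix.mulVec_mulVec, hab', Matrix.zero_mulVec]⟩
    exact NoZeroDivisors.to_isDomain A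
  letI : CommRing A := { (inferInstance : Ring A) with
    mul_comm := fun a b => Subtype.ext ((Algebra.commute_of_mem_adjoin_of_forall_mem_commute b.2
      (fun c hc => by
        rw [Set.mem_singleton_iff.mp hc]
        exact hAcomm _ a.2)).eq) }
  set C := Subgroup.centralizer ({x} : Set (GL (Fin n) F)) with hC
  have hCmem : ∀ g : C, ((g : GL (Fin n) F) : Matrix (Fin n) (Fin n) F) ∈ A := fun g => hpoly _ (by
    have h := congrArg Units.val (Subgroup.mem_centralizer_singleton_iff.mp g.2)
    simpa [hM] using h)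
  let f : C →* A :=
    { toFun := fun g => ⟨_, hCmem g⟩
      map_one' := rfl
      map_mul' := fun g h => rfl }
  have hf : Function.Injective f := fun g h e => Subtype.ext (Units.ext (congrArg Subtype.val e :))
  refine ⟨isCyclic_of_injective_ringHom f hf, ?_⟩
  have hfun : Function.Bijective (fun g : C => (⟨((g : GL (Fin n) F) : Matrix (Fin n) (Fin n) F).mulVec v,
      fun h => hv (by
        have h1 := congrArg ((((g : GL (Fin n) F)⁻¹ : GL (Fin n) F)) : Matrix (Fin n) (Fin n) F).mulVec h
        rwa [Matrix.mulVec_mulVec, ← Units.val_mul, inv_mul_cancel, Units.val_one, Matrix.one_mulVec, Matrix.mulVec_zero] at h1)⟩ :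
        {w : Fin n → F // w ≠ 0})) := by
    refine ⟨fun g h e => ?_, fun w => ?_⟩
    · have e' : ((g : GL (Fin n) F) : Matrix (Fin n) (Fin n) F).mulVec v =
          ((h : GL (Fin n) F) : Matrix (Fin n) (Fin n) F).mulVec v := congrArg Subtype.val e
      refine Subtype.ext (Units.ext ?_)
      by_contra hne
      refine hv (hinj _ ?_ (sub_ne_zero.mpr hne) v (by rw [Matrix.sub_mulVec, e', sub_self]))
      rw [sub_mul, mul_sub, hAcomm _ (hCmem g), hAcomm _ (hCmem h)]
    · obtain ⟨a, ha⟩ : (w : Fin n → F) ∈ LinearMap.range ev := hev ▸ Submodule.mem_top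
      have ha0 : (a : Matrix (Fin n) (Fin n) F) ≠ 0 := fun h => w.2 (by
        rw [← ha]; show (a : Matrix (Fin n) (Fin n) F).mulVec v = 0
        rw [h, Matrix.zero_mulVec])
      have hu : IsUnit (a : Matrix (Fin n) (Fin n) F) := Matrix.mulVec_injective_iff_isUnit.mp fun y z hyz =>
        sub_eq_zero.mp (hinj _ (hAcomm _ a.2) ha0 (y - z) (by rw [Matrix.mulVec_sub, hyz, sub_self]))
      obtain ⟨g, hg⟩ := hu
      refine ⟨⟨g, Subgroup.mem_centralizer_singleton_iff.mpr (Units.ext ?_)⟩, Subtype.ext ?_⟩
      · rw [Units.val_mul, Units.val_mul, hg]; exact hAcomm _ a.2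
      · show (g : Matrix (Fin n) (Fin n) F).mulVec v = w.1
        rw [hg]; exact ha
  rw [Nat.card_congr (Equiv.ofBijective _ hfun), Nat.card_eq_fintype_card, Fintype.card_subtype_compl,
    Fintype.card_subtype_eq, Fintype.card_fun, Fintype.card_fin]

end CfsgLib.Centralizers
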