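import Mathlib

/-!
# Centralizer of a regular unipotent element
-/

set_option autoImplicit false

namespace CfsgLib.Centralizers

universe u

variable {F : Type u} [Field F] [Fintype F] {n : ℕ}

theorem card_centralizer_regular (u : GL (Fin n) F) (hn : 1 ≤ n)
    (hnil : ((u : Matrix (Fin n) (Fin n) F) - 1) ^ n = 0)
    (hreg : ((u : Matrix (Fin n) (Fin n) F) - 1).rank = n - 1) :
    Nat.card ↥(Subgroup.centralizer ({u} : Set (GL (Fin n) F))) =
      (Fintype.card F - 1) * Fintype.card F ^ (n - 1) := by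
  classical
  obtain ⟨m, rfl⟩ : ∃ m, n = m + 1 := ⟨n - 1, by omega⟩
  set N : Matrix (Fin (m + 1)) (Fin (m + 1)) F := (u : Matrix (Fin (m + 1)) (Fin (m + 1)) F) - 1 with hN
  set L : (Fin (m + 1) → F) →ₗ[F] (Fin (m + 1) → F) := Matrix.mulVecLin N with hL
  have hpow : ∀ k : ℕ, Matrix.mulVecLin (N ^ k) = L ^ k := by
    intro k
    induction k with
    | zero => simp [Module.End.one_eq_id, Matrix.mulVecLin_one]
    | succ k ih => rw [pow_succ, pow_succ, Matrix.mulVecLin_mul, ih, hL, Module.End.mul_eq_comp]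
  have hker1 : Module.finrank F (LinearMap.ker L) ≤ 1 := by
    have h := LinearMap.finrank_range_add_finrank_ker L
    rw [Module.finrank_fin_fun] at h
    have : Module.finrank F (LinearMap.range L) = m := hreg.trans (Nat.add_sub_cancel m 1)
    omega
  have hle : ∀ k : ℕ, Module.finrank F (LinearMap.ker (L ^ k)) ≤ k := by
    intro k
    induction k with
    | zero => simp [Module.End.one_eq_id]
    | succ k ih =>
      have hm : ∀ v ∈ LinearMap.ker (L ^ (k + 1)), L v ∈ LinearMap.ker (L ^ k) := by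
        intro v hv
        rw [LinearMap.mem_ker, pow_succ, Module.End.mul_apply] at hv
        exact hv
      let g : LinearMap.ker (L ^ (k + 1)) →ₗ[F] LinearMap.ker (L ^ k) := L.restrict hm
      have h := LinearMap.finrank_range_add_finrank_ker g
      have h1 : Module.finrank F (LinearMap.range g) ≤ k := (Submodule.finrank_le _).trans ih
      have h2 : Module.finrank F (LinearMap.ker g) ≤ 1 := by
        refine le_trans ?_ hker1
        let i : LinearMap.ker g →ₗ[F] LinearMap.ker L :=
          LinearMap.codRestrict _ ((LinearMap.ker (L ^ (k + 1))).subtype.comp (LinearMap.ker g).subtype)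
            (fun x => LinearMap.mem_ker.mpr (congrArg Subtype.val (LinearMap.mem_ker.mp x.2)))
        exact LinearMap.finrank_le_finrank_of_injective (f := i) (fun x y hxy =>
          Subtype.ext (Subtype.ext (congrArg (fun z : LinearMap.ker L => (z : Fin (m + 1) → F)) hxy :)))
      omega
  have hLn : L ^ (m + 1) = 0 := by rw [← hpow, hnil]; ext; simp
  have hkerm : Module.finrank F (LinearMap.ker (L ^ m)) = m := by
    refine le_antisymm (hle m) ?_
    have h := LinearMap.finrank_range_add_finrank_ker (L ^ m)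
    rw [Module.finrank_fin_fun] at h
    have h1 : LinearMap.range (L ^ m) ≤ LinearMap.ker L := by
      rintro _ ⟨v, rfl⟩
      rw [LinearMap.mem_ker, ← Module.End.mul_apply, ← pow_succ', hLn]; rfl
    have := Submodule.finrank_mono h1
    omega
  obtain ⟨v, hv⟩ : ∃ v, (L ^ m) v ≠ 0 := by
    by_contra hh
    push Not at hh
    have : LinearMap.ker (L ^ m) = ⊤ := (Submodule.eq_top_iff'.mpr fun x => hh x)
    rw [this, finrank_top, Module.finrank_fin_fun] at hkerm
    omega
  -- coordinates in the cyclic basis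
  let E : (Fin (m + 1) → F) →ₗ[F] (Fin (m + 1) → F) :=
    ∑ i : Fin (m + 1), (LinearMap.proj i).smulRight ((L ^ (i : ℕ)) v)
  have hE : ∀ c, E c = ∑ i : Fin (m + 1), c i • (L ^ (i : ℕ)) v := fun c => by simp [E]
  have hEinj : Function.Injective E := by
    rw [← LinearMap.ker_eq_bot, LinearMap.ker_eq_bot']
    intro c hc
    by_contra hne
    have hex : ∃ i : ℕ, ∃ h : i < m + 1, c ⟨i, h⟩ ≠ 0 := by
      obtain ⟨i, hi⟩ := Function.ne_iff.mp hne
      exact ⟨i, i.2, hi⟩
    obtain ⟨hi, hci⟩ := Nat.find_spec hex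
    set i₀ := Nat.find hex
    have h1 := congrArg (L ^ (m - i₀)) hc
    rw [hE, map_sum, map_zero, Finset.sum_eq_single (⟨i₀, hi⟩ : Fin (m + 1))] at h1
    · rw [map_smul, ← Module.End.mul_apply, ← pow_add, show m - i₀ + i₀ = m by omega, smul_eq_zero] at h1
      exact h1.elim hci hv
    · intro j _ hj
      rw [map_smul, ← Module.End.mul_apply, ← pow_add]
      rcases lt_or_gt_of_ne (fun e => hj (Fin.ext e) : (j : ℕ) ≠ i₀) with hlt | hgt
      · rw [show c j = 0 by by_contra h; exact Nat.find_min hex hlt ⟨j.2, h⟩, zero_smul]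
      · rw [show m - i₀ + (j : ℕ) = (m + 1) + ((j : ℕ) - i₀ - 1) by omega, pow_add, hLn, zero_mul]
        simp
    · simp
  have hEsurj : Function.Surjective E := LinearMap.injective_iff_surjective.mp hEinj
  -- polynomials in `N`
  let P : (Fin (m + 1) → F) → Matrix (Fin (m + 1)) (Fin (m + 1)) F := fun c => ∑ i, c i • N ^ (i : ℕ)
  have hPv : ∀ c, (P c).mulVec v = E c := fun c => by
    simp only [P, Matrix.sum_mulVec, Matrix.smul_mulVec, hE, ← hpow, Matrix.mulVecLin_apply]
  have hPcomm : ∀ c, P c * N = N * P c := fun c => by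
    simp only [P, Finset.sum_mul, Finset.mul_sum, smul_mul_assoc, mul_smul_comm, ← pow_succ, ← pow_succ']
  have hcommN : ∀ A : Matrix (Fin (m + 1)) (Fin (m + 1)) F, A * N = N * A →
      ∀ (k : ℕ) w, A.mulVec ((L ^ k) w) = (L ^ k) (A.mulVec w) := by
    intro A hA k w
    rw [← hpow, Matrix.mulVecLin_apply, Matrix.mulVecLin_apply, Matrix.mulVec_mulVec, Matrix.mulVec_mulVec,
      ((show Commute A N from hA).pow_right k).eq]
  have huniq : ∀ A B : Matrix (Fin (m + 1)) (Fin (m + 1)) F, A * N = N * A → B * N = N * B →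
      A.mulVec v = B.mulVec v → A = B := by
    intro A B hA hB hAB
    apply Matrix.toLin'.injective
    apply LinearMap.ext
    intro w
    obtain ⟨c, rfl⟩ := hEsurj w
    simp only [Matrix.toLin'_apply, hE, Matrix.mulVec_sum, Matrix.mulVec_smul, hcommN A hA, hcommN B hB, hAB]
  have hcent : ∀ g : GL (Fin (m + 1)) F, g ∈ Subgroup.centralizer ({u} : Set (GL (Fin (m + 1)) F)) ↔
      (g : Matrix (Fin (m + 1)) (Fin (m + 1)) F) * N = N * g := by
    intro g
    rw [Subgroup.mem_centralizer_singleton_iff, hN, mul_sub, sub_mul, mul_one, one_mul, sub_left_inj]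
    exact ⟨fun h => congrArg Units.val h, fun h => Units.ext h⟩
  -- invertibility
  have hunit : ∀ c : Fin (m + 1) → F, c 0 ≠ 0 → IsUnit (P c) := by
    intro c hc
    have e : P c = algebraMap F _ (c 0) + N * ∑ i : Fin m, c i.succ • N ^ (i : ℕ) := by
      simp only [P, Fin.sum_univ_succ, Fin.val_zero, pow_zero, Fin.val_succ, Finset.mul_sum, mul_smul_comm, ← pow_succ',
        Algebra.algebraMap_eq_smul_one]
    rw [e]
    set S := ∑ i : Fin m, c i.succ • N ^ (i : ℕ)
    have hcS : Commute N S := Commute.sum_right _ _ _ fun i _ => (Commute.pow_right (Commute.refl N) _).smul_right _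
    have hnilp : IsNilpotent (N * S) := ⟨m + 1, by rw [hcS.mul_pow, hnil, zero_mul]⟩
    rw [add_comm (algebraMap F _ (c 0))]
    exact hnilp.isUnit_add_right_of_commute ((isUnit_iff_ne_zero.mpr hc).map _)
      (Algebra.commute_algebraMap_right (c 0) (N * S))
  let f : ↥(Subgroup.centralizer ({u} : Set (GL (Fin (m + 1)) F))) → {w : Fin (m + 1) → F // w ∉ LinearMap.ker (L ^ m)} :=
    fun g => ⟨((g : GL (Fin (m + 1)) F) : Matrix (Fin (m + 1)) (Fin (m + 1)) F).mulVec v, fun h => by
      rw [LinearMap.mem_ker, ← hcommN _ ((hcent _).mp g.2) m v] at h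
      apply hv
      have h1 := congrArg (((g : GL (Fin (m + 1)) F)⁻¹ : GL (Fin (m + 1)) F) : Matrix (Fin (m + 1)) (Fin (m + 1)) F).mulVec h
      rwa [Matrix.mulVec_mulVec, ← Units.val_mul, inv_mul_cancel, Units.val_one, Matrix.one_mulVec,
        Matrix.mulVec_zero] at h1⟩
  have hf : Function.Bijective f := by
    refine ⟨fun g g' h => ?_, fun w => ?_⟩
    · exact Subtype.ext (Units.ext (huniq _ _ ((hcent _).mp g.2) ((hcent _).mp g'.2) (congrArg Subtype.val h)))
    · obtain ⟨c, hc⟩ := hEsurj w.1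
      have hc0 : c 0 ≠ 0 := by
        intro h0
        apply w.2
        rw [LinearMap.mem_ker, ← hc, hE, map_sum]
        refine Finset.sum_eq_zero fun i _ => ?_
        rw [map_smul, ← Module.End.mul_apply, ← pow_add]
        rcases eq_or_ne i 0 with rfl | hi
        · rw [h0, zero_smul]
        · have : 0 < (i : ℕ) := Nat.pos_of_ne_zero fun e => hi (Fin.ext e)
          rw [show m + (i : ℕ) = (m + 1) + ((i : ℕ) - 1) by omega, pow_add, hLn, zero_mul]
          simp
      obtain ⟨g, hg⟩ := hunit c hc0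
      refine ⟨⟨g, (hcent g).mpr (by rw [hg]; exact hPcomm c)⟩, Subtype.ext ?_⟩
      show (g : Matrix (Fin (m + 1)) (Fin (m + 1)) F).mulVec v = w.1
      rw [hg, hPv, hc]
  rw [Nat.card_congr (Equiv.ofBijective f hf)]
  have h1 : Nat.card {w : Fin (m + 1) → F // w ∉ LinearMap.ker (L ^ m)} =
      Fintype.card (Fin (m + 1) → F) - Fintype.card (LinearMap.ker (L ^ m)) := by
    rw [Nat.card_eq_fintype_card, Fintype.card_subtype_compl]
  rw [h1, Fintype.card_fun, Fintype.card_fin, Module.card_eq_pow_finrank (K := F) (V := LinearMap.ker (L ^ m)),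
    hkerm, Nat.add_sub_cancel, Nat.sub_mul, one_mul, pow_succ']

end CfsgLib.Centralizers
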