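import Mathlib
import Cfsg.Agent.Lib.SL2Classes.Unipotent
import Cfsg.Agent.Lib.Linear.SmallPSL

/-!
# Classes of elements of order `p` in `SL₂`
-/

set_option autoImplicit false

namespace CfsgLib.Centralizers.SL2U

universe u

variable {F : Type u} [Field F]

local notation "L" => Matrix.SpecialLinearGroup (Fin 2) F
local notation "M2" => Matrix (Fin 2) (Fin 2) F

/-- The upper unitriangular element. -/
def u (b : F) : L := ⟨!![1, b; 0, 1], by simp [Matrix.det_fin_two]⟩

theorem coe_u (b : F) : ((u b : L) : M2) = !![1, b; 0, 1] := rfl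

theorem u_pow (b : F) (k : ℕ) : u b ^ k = u ((k : F) * b) := by
  induction k with
  | zero => apply Subtype.ext; simp [coe_u, Matrix.one_fin_two]
  | succ k ih =>
    rw [pow_succ, ih]
    apply Subtype.ext
    simp [coe_u, Matrix.mul_fin_two]
    ring

theorem u_eq_one {b : F} : (u b : L) = 1 ↔ b = 0 := by
  refine ⟨fun h => ?_, fun h => Subtype.ext (by simp [u, h, Matrix.one_fin_two])⟩
  have := congrArg (fun z : L => (z : M2) 0 1) h
  simpa [u] using this

theorem orderOf_u (p : ℕ) [Fact p.Prime] [CharP F p] {b : F} (hb : b ≠ 0) : orderOf (u b : L) = p :=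
  orderOf_eq_prime (by rw [u_pow, CharP.cast_eq_zero, zero_mul, u_eq_one]) (fun h => hb (u_eq_one.mp h))

theorem eq_u {g : L} (h0 : (g : M2) 0 0 = 1) (h1 : (g : M2) 1 1 = 1) (h2 : (g : M2) 1 0 = 0) :
    g = u ((g : M2) 0 1) := by
  apply Subtype.ext
  ext i j
  fin_cases i <;> fin_cases j <;> simp [u, h0, h1, h2]

theorem entries (g : L) : (g : M2) 0 0 * (g : M2) 1 1 - (g : M2) 0 1 * (g : M2) 1 0 = 1 := by
  rw [← Matrix.det_fin_two]; exact g.2

theorem isConj_iff_square {b b' : F} (hb : b ≠ 0) (hb' : b' ≠ 0) :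
    IsConj (u b : L) (u b') ↔ IsSquare (b * b') := by
  constructor
  · intro h
    obtain ⟨k, hk⟩ := isConj_iff.mp h
    have h1 : k * u b = u b' * k := mul_inv_eq_iff_eq_mul.mp hk
    have e00 := congrArg (fun z : L => (z : M2) 0 0) h1
    have e01 := congrArg (fun z : L => (z : M2) 0 1) h1
    simp [coe_u, Matrix.mul_apply, Fin.sum_univ_two] at e00 e01
    have k10 : (k : M2) 1 0 = 0 := e00.resolve_left hb'
    have hd := entries k
    rw [k10, mul_zero, sub_zero] at hd
    refine ⟨b * (k : M2) 0 0, ?_⟩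
    linear_combination (-(b * (k : M2) 0 0)) * e01 - b * b' * hd
  · rintro ⟨s, hs⟩
    have hs0 : s ≠ 0 := by rintro rfl; simp [hb, hb'] at hs
    have hdet : (!![s / b, 0; 0, b / s] : M2).det = 1 := by simp [Matrix.det_fin_two]; field_simp
    let k : L := ⟨!![s / b, 0; 0, b / s], hdet⟩
    have hk : (k : M2) = !![s / b, 0; 0, b / s] := rfl
    refine isConj_iff.mpr ⟨k, ?_⟩
    rw [mul_inv_eq_iff_eq_mul]
    apply Subtype.ext
    ext i j
    fin_cases i <;> fin_cases j <;> simp [coe_u, hk, Matrix.mul_apply, Fin.sum_univ_two]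
    field_simp
    linear_combination (-1 : F) * hs

theorem exists_conj (p : ℕ) [Fact p.Prime] [CharP F p] {g : L} (hg : orderOf g = p) :
    ∃ b : F, b ≠ 0 ∧ IsConj (u b) g := by
  obtain ⟨d, hd, hP⟩ := CfsgLib.SL2Classes.exists_sl_normal_form p hg
  obtain ⟨P, hPdet, hgP⟩ := hP 1 one_ne_zero
  rw [one_pow, one_mul] at hPdet
  have hdet : (P * !![d⁻¹, 0; 0, 1]).det = 1 := by
    rw [Matrix.det_mul, hPdet, Matrix.det_fin_two_of]
    field_simp; ring
  let k : L := ⟨P * !![d⁻¹, 0; 0, 1], hdet⟩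
  refine ⟨d, hd, isConj_iff.mpr ⟨k, ?_⟩⟩
  · rw [mul_inv_eq_iff_eq_mul]
    apply Subtype.ext
    show P * !![d⁻¹, 0; 0, 1] * !![1, d; 0, 1] = (g : M2) * (P * !![d⁻¹, 0; 0, 1])
    rw [← Matrix.mul_assoc (g : M2), hgP, Matrix.mul_assoc, Matrix.mul_assoc]
    congr 1
    simp [Matrix.mul_fin_two, hd]

variable [Fintype F]

theorem card_centralizer (hodd : ringChar F ≠ 2) {b : F} (hb : b ≠ 0) :
    Nat.card (Subgroup.centralizer ({u b} : Set L)) = 2 * Fintype.card F := by
  classical
  have h2 : (1 : F) ≠ -1 := (Ring.neg_one_ne_one_of_char_ne_two hodd).symm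
  let f : {e : F // e = 1 ∨ e = -1} × F → Subgroup.centralizer ({u b} : Set L) := fun ec =>
    ⟨⟨!![(ec.1 : F), ec.2; 0, (ec.1 : F)], by rcases ec.1.2 with h | h <;> simp [Matrix.det_fin_two, h]⟩,
      Subgroup.mem_centralizer_singleton_iff.mpr (Subtype.ext (by
        show !![(ec.1 : F), ec.2; 0, (ec.1 : F)] * !![1, b; 0, 1] = !![1, b; 0, 1] * !![(ec.1 : F), ec.2; 0, (ec.1 : F)]
        simp [Matrix.mul_fin_two]; ring))⟩
  have hf : Function.Bijective f := by
    constructor
    · rintro ⟨⟨e, he⟩, c⟩ ⟨⟨e', he'⟩, c'⟩ h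
      have h0 := congrArg (fun z : Subgroup.centralizer ({u b} : Set L) => ((z : L) : M2) 0 0) h
      have h1 := congrArg (fun z : Subgroup.centralizer ({u b} : Set L) => ((z : L) : M2) 0 1) h
      simp [f] at h0 h1
      simp [h0, h1]
    · intro k
      have h1 : (k : L) * u b = u b * (k : L) := Subgroup.mem_centralizer_singleton_iff.mp k.2
      have e00 := congrArg (fun z : L => (z : M2) 0 0) h1
      have e01 := congrArg (fun z : L => (z : M2) 0 1) h1
      simp [coe_u, Matrix.mul_apply, Fin.sum_univ_two] at e00 e01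
      have k10 : ((k : L) : M2) 1 0 = 0 := e00.resolve_left hb
      have hd := entries (k : L)
      rw [k10, mul_zero, sub_zero] at hd
      have k11 : ((k : L) : M2) 0 0 = ((k : L) : M2) 1 1 := mul_right_cancel₀ hb (by linear_combination e01)
      rw [← k11] at hd
      refine ⟨⟨⟨((k : L) : M2) 0 0, mul_self_eq_one_iff.mp hd⟩, ((k : L) : M2) 0 1⟩, Subtype.ext (Subtype.ext ?_)⟩
      ext i j
      fin_cases i <;> fin_cases j <;> simp [f, k10, k11]
  rw [← Nat.card_congr (Equiv.ofBijective f hf), Nat.card_prod, Nat.card_eq_fintype_card (α := F),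
    Nat.card_eq_fintype_card, Fintype.card_subtype, show (Finset.univ.filter fun e : F => e = 1 ∨ e = -1) = {1, -1} by ext; simp,
    Finset.card_pair h2]

theorem order_p_classes (p : ℕ) [Fact p.Prime] [CharP F p] (hp : p ≠ 2) :
    Nat.card {C : ConjClasses L // ∃ g : L, orderOf g = p ∧ ConjClasses.mk g = C} = 2 ∧
    (∀ g : L, orderOf g = p → Nat.card (ConjClasses.mk g).carrier = (Fintype.card F ^ 2 - 1) / 2) ∧
    ∀ g h : L, (g : M2) 0 0 = 1 → (g : M2) 1 1 = 1 → (g : M2) 1 0 = 0 → (g : M2) 0 1 ≠ 0 →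
      (h : M2) 0 0 = 1 → (h : M2) 1 1 = 1 → (h : M2) 1 0 = 0 → (h : M2) 0 1 ≠ 0 →
      (IsConj g h ↔ IsSquare ((g : M2) 0 1 * (h : M2) 0 1)) := by
  classical
  have hring : ringChar F ≠ 2 := by rw [ringChar.eq F p]; exact hp
  refine ⟨?_, ?_, fun g h g0 g1 g2 g3 k0 k1 k2 k3 => ?_⟩
  · obtain ⟨ν, hν⟩ := FiniteField.exists_nonsquare hring
    have hν0 : ν ≠ 0 := by rintro rfl; exact hν (IsSquare.zero)
    let f : Bool → {C : ConjClasses L // ∃ g : L, orderOf g = p ∧ ConjClasses.mk g = C} := fun i =>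
      if i then ⟨ConjClasses.mk (u 1), u 1, orderOf_u p one_ne_zero, rfl⟩
      else ⟨ConjClasses.mk (u ν), u ν, orderOf_u p hν0, rfl⟩
    have hne : ¬ IsConj (u (1 : F)) (u ν) := fun h => hν (by
      simpa using (isConj_iff_square one_ne_zero hν0).mp h)
    have hf : Function.Bijective f := by
      constructor
      · rintro (_ | _) (_ | _) h <;> simp [f, ConjClasses.mk_eq_mk_iff_isConj] at h ⊢
        · exact hne (isConj_iff.mpr h).symm
        · exact hne (isConj_iff.mpr h)
      · rintro ⟨C, g, hg, rfl⟩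
        obtain ⟨b, hb, hbg⟩ := exists_conj p hg
        by_cases hsq : IsSquare b
        · refine ⟨true, Subtype.ext (ConjClasses.mk_eq_mk_iff_isConj.mpr (((isConj_iff_square one_ne_zero hb).mpr ?_).trans hbg))⟩
          rwa [one_mul]
        · refine ⟨false, Subtype.ext (ConjClasses.mk_eq_mk_iff_isConj.mpr (((isConj_iff_square hν0 hb).mpr ?_).trans hbg))⟩
          rw [← quadraticChar_one_iff_isSquare (mul_ne_zero hν0 hb), map_mul, quadraticChar_neg_one_iff_not_isSquare.mpr hν,
            quadraticChar_neg_one_iff_not_isSquare.mpr hsq]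
          norm_num
    rw [← Nat.card_congr (Equiv.ofBijective f hf), Nat.card_eq_fintype_card, Fintype.card_bool]
  · intro g hg
    obtain ⟨b, hb, hbg⟩ := exists_conj p hg
    rw [← ConjClasses.mk_eq_mk_iff_isConj.mpr hbg, Nat.card_eq_fintype_card, ConjClasses.card_carrier]
    have h1 := CfsgLib.Linear.SmallPSL.card_SL2 (F := F)
    have hc : Fintype.card (MulAction.stabilizer (ConjAct L) (u b : L)) = 2 * Fintype.card F := by
      rw [← card_centralizer hring hb, ← Nat.card_eq_fintype_card]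
      refine Nat.card_congr (ConjAct.ofConjAct.toEquiv.subtypeEquiv fun k => ?_)
      rw [MulAction.mem_stabilizer_iff, ConjAct.smul_def]
      show _ ↔ ConjAct.ofConjAct k ∈ Subgroup.centralizer ({u b} : Set L)
      rw [Subgroup.mem_centralizer_singleton_iff, mul_inv_eq_iff_eq_mul]
    rw [hc, ← Nat.card_eq_fintype_card (α := L)]
    have hq : 2 ≤ Fintype.card F := Fintype.one_lt_card
    have h2 : Nat.card L = Fintype.card F * (Fintype.card F ^ 2 - 1) := by
      refine Nat.eq_of_mul_eq_mul_left (show 0 < Fintype.card F - 1 by omega) (h1.trans ?_)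
      have e : Fintype.card F ^ 2 - Fintype.card F = Fintype.card F * (Fintype.card F - 1) := by
        rw [Nat.mul_sub, sq, mul_one]
      rw [e]; ring
    rw [h2, mul_comm 2, Nat.mul_div_mul_left _ _ (by omega)]
  · rw [eq_u g0 g1 g2, eq_u k0 k1 k2]
    simpa [u] using isConj_iff_square g3 k3

end CfsgLib.Centralizers.SL2U
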