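import Mathlib
import Cfsg.Agent.Lib.Linear.SmallPSL

/-!
# The structure of `SL₂(3)`
-/

set_option autoImplicit false
set_option maxRecDepth 20000

namespace CfsgLib.Centralizers.SL2Three

open scoped commutatorElement

abbrev L3 := Matrix.SpecialLinearGroup (Fin 2) (ZMod 3)

def qa : L3 := ⟨!![0, 2; 1, 0], by decide⟩
def qb : L3 := ⟨!![1, 1; 1, 2], by decide⟩

def qf : QuaternionGroup 2 → L3
  | .a i => qa ^ i.val
  | .xa i => qb * qa ^ i.val

theorem qf_mul : ∀ x y : QuaternionGroup 2, qf (x * y) = qf x * qf y := by decide +kernel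

def qh : QuaternionGroup 2 →* L3 := MonoidHom.mk' qf qf_mul

theorem qh_injective : Function.Injective qh := by
  show ∀ x y, qh x = qh y → x = y
  decide +kernel

theorem comm_mem : ∀ g h : L3, ∃ x, qf x = g * h * g⁻¹ * h⁻¹ := by decide +kernel

theorem mem_comm : ∀ x, ∃ g h : L3, qf x = g * h * g⁻¹ * h⁻¹ := by decide +kernel

theorem outer_cover : ∀ g : L3, (∀ x, qf x ≠ g) → ∀ x, ∃ h k : L3,
    qf x = (g * h * g⁻¹ * h⁻¹) * (g * k * g⁻¹ * k⁻¹) := by decide +kernel

theorem inner_cover : ∀ y, (∃ h : L3, h * qf y ≠ qf y * h) → ∀ x, ∃ h k : L3,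
    qf x = (h * qf y * h⁻¹) * (k * qf y * k⁻¹) := by decide +kernel

theorem center_card : Nat.card (Subgroup.center L3) = 2 := by
  rw [CfsgLib.Linear.Card.card_center_SL]; simp

theorem card_L3 : Nat.card L3 = 24 := by
  have := CfsgLib.Linear.SmallPSL.card_SL2 (F := ZMod 3)
  rw [ZMod.card] at this
  change 2 * Nat.card L3 = 48 at this
  omega

theorem commutator_eq : commutator L3 = qh.range := by
  refine le_antisymm (Subgroup.commutator_le.mpr fun g _ h _ => ?_) ?_
  · obtain ⟨x, hx⟩ := comm_mem g h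
    exact ⟨x, hx⟩
  · rintro _ ⟨x, rfl⟩
    obtain ⟨g, h, hx⟩ := mem_comm x
    show qf x ∈ commutator L3
    rw [hx]
    exact Subgroup.commutator_mem_commutator (Subgroup.mem_top g) (Subgroup.mem_top h)

theorem card_commutator : Nat.card (commutator L3) = 8 := by
  rw [commutator_eq, ← Nat.card_congr (MonoidHom.ofInjective qh_injective).toEquiv, Nat.card_eq_fintype_card,
    QuaternionGroup.card]

theorem structure_result :
    Nat.card L3 = 24 ∧ Nat.card (Subgroup.center L3) = 2 ∧ Nat.card (commutator L3) = 8 ∧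
    Nonempty (commutator L3 ≃* QuaternionGroup 2) ∧
    (∀ P : Sylow 3 L3, Subgroup.IsComplement' (commutator L3) (P : Subgroup L3)) ∧
    ∀ N : Subgroup L3, N.Normal → N = ⊥ ∨ N = ⊤ ∨ N = Subgroup.center L3 ∨ N = commutator L3 := by
  refine ⟨card_L3, center_card, card_commutator, ⟨(MulEquiv.subgroupCongr commutator_eq).trans
    (MonoidHom.ofInjective qh_injective).symm⟩, fun P => ?_, fun N hN => ?_⟩
  · have hP : Nat.card (P : Subgroup L3) = 3 := by
      haveI : Fact (Nat.Prime 3) := ⟨Nat.prime_three⟩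
      rw [Sylow.card_eq_multiplicity, card_L3, show (24 : ℕ) = 3 ^ 1 * 8 by norm_num,
        Nat.factorization_mul (by norm_num) (by norm_num), Finsupp.add_apply, Nat.Prime.factorization_pow Nat.prime_three,
        Finsupp.single_eq_same, Nat.factorization_eq_zero_of_not_dvd (by norm_num)]
      norm_num
    exact Subgroup.isComplement'_of_coprime (by rw [card_commutator, hP, card_L3]) (by rw [card_commutator, hP]; decide)
  · by_cases hN1 : ∃ g ∈ N, g ∉ commutator L3
    · obtain ⟨g, hg, hgc⟩ := hN1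
      have hQ : commutator L3 ≤ N := by
        rw [commutator_eq]
        rintro _ ⟨x, rfl⟩
        obtain ⟨h, k, hx⟩ := outer_cover g (fun x hx => hgc (commutator_eq ▸ ⟨x, hx⟩)) x
        show qf x ∈ N
        rw [hx, show g * h * g⁻¹ * h⁻¹ = g * (h * g⁻¹ * h⁻¹) by group,
          show g * k * g⁻¹ * k⁻¹ = g * (k * g⁻¹ * k⁻¹) by group]
        exact N.mul_mem (N.mul_mem hg (hN.conj_mem _ (N.inv_mem hg) h)) (N.mul_mem hg (hN.conj_mem _ (N.inv_mem hg) k))
      refine Or.inr (Or.inl ?_)
      have hlt : commutator L3 < N := lt_of_le_of_ne hQ fun e => hgc (e ▸ hg)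
      rw [← Subgroup.index_eq_one]
      have h1 := Subgroup.relIndex_mul_index hQ
      have h2 := Subgroup.card_mul_index (commutator L3)
      rw [card_commutator, card_L3] at h2
      rw [show (commutator L3).index = 3 by omega] at h1
      have h3 : (commutator L3).relIndex N ≠ 1 := fun e => hlt.not_ge (Subgroup.relIndex_eq_one.mp e)
      rcases (Nat.dvd_prime Nat.prime_three).mp (h1 ▸ dvd_mul_left N.index _) with h4 | h4
      · exact h4
      · rw [h4] at h1; omega
    · push Not at hN1
      by_cases hN2 : N ≤ Subgroup.center L3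
      · rcases (Nat.dvd_prime Nat.prime_two).mp (center_card ▸ Subgroup.card_dvd_of_le hN2) with h | h
        · exact Or.inl (Subgroup.card_eq_one.mp h)
        · exact Or.inr (Or.inr (Or.inl (Subgroup.eq_of_le_of_card_ge hN2 (by rw [h, center_card]))))
      · obtain ⟨g, hg, hgc⟩ := SetLike.not_le_iff_exists.mp hN2
        obtain ⟨y, hy⟩ : g ∈ qh.range := commutator_eq ▸ hN1 g hg
        change qf y = g at hy
        subst hy
        rw [Subgroup.mem_center_iff] at hgc
        push Not at hgc
        refine Or.inr (Or.inr (Or.inr (le_antisymm hN1 ?_)))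
        rw [commutator_eq]
        rintro _ ⟨x, rfl⟩
        obtain ⟨h, k, hx⟩ := inner_cover y hgc x
        show qf x ∈ N
        rw [hx]
        exact N.mul_mem (hN.conj_mem _ hg h) (hN.conj_mem _ hg k)

end CfsgLib.Centralizers.SL2Three
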