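import Mathlib

/-!
# The centraliser of a transvection in `GL_n`
-/

set_option autoImplicit false
set_option linter.style.haveILetI false

namespace CfsgLib.TransvCent

open Matrix Module

universe u

variable {F : Type u} [Field F] {m : ℕ}

local notation "Mn" => Matrix (Fin (m + 2)) (Fin (m + 2)) F

/-- Normal form of a transvection in any dimension at least two. -/
theorem exists_conj (t : Mn) (hr : (t - 1).rank = 1) (hsq : (t - 1) * (t - 1) = 0) :
    ∃ g : Mn, g.det ≠ 0 ∧ (t - 1) * g = g * Matrix.single 0 1 1 := by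
  classical
  set N : (Fin (m + 2) → F) →ₗ[F] (Fin (m + 2) → F) := (t - 1).mulVecLin with hN
  have hrange : finrank F (LinearMap.range N) = 1 := hr
  have hker : finrank F (LinearMap.ker N) = m + 1 := by
    have := LinearMap.finrank_range_add_finrank_ker N
    rw [hrange, finrank_fintype_fun_eq_card, Fintype.card_fin] at this
    omega
  have hNN : ∀ v, N (N v) = 0 := fun v => by
    show (t - 1).mulVec ((t - 1).mulVec v) = 0
    rw [Matrix.mulVec_mulVec, hsq, Matrix.zero_mulVec]
  obtain ⟨w, hw⟩ : ∃ w, N w ≠ 0 := by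
    by_contra h
    push Not at h
    have h0 : N = 0 := LinearMap.ext fun v => h v
    rw [h0, LinearMap.range_zero, finrank_bot] at hrange
    omega
  set u := N w with hu
  obtain ⟨C₀, hC₀⟩ := Submodule.exists_isCompl (F ∙ u)
  set C := C₀ ⊓ LinearMap.ker N with hCd
  have hle : F ∙ u ≤ LinearMap.ker N := (Submodule.span_singleton_le_iff_mem _ _).2 (hNN w)
  have hC : finrank F C = m := by
    have h1 := Submodule.finrank_sup_add_finrank_inf_eq (F ∙ u) C
    have h2 : (F ∙ u) ⊔ C = LinearMap.ker N := by
      rw [hCd, ← sup_inf_assoc_of_le _ hle, hC₀.sup_eq_top, top_inf_eq]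
    have h3 : (F ∙ u) ⊓ C = ⊥ := (hC₀.disjoint.mono_right inf_le_left).eq_bot
    rw [h2, h3, finrank_bot, finrank_span_singleton hw, hker] at h1
    omega
  let c := Module.finBasisOfFinrankEq F C hC
  let col : Fin (m + 2) → (Fin (m + 2) → F) := Fin.cons u (Fin.cons w (fun j => (c j : Fin (m + 2) → F)))
  have hli : LinearIndependent F col := by
    rw [linearIndependent_fin_cons, linearIndependent_fin_cons]
    have hsC : Submodule.span F (Set.range fun j => (c j : Fin (m + 2) → F)) ≤ C :=
      Submodule.span_le.2 (by rintro _ ⟨j, rfl⟩; exact (c j).2)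
    refine ⟨⟨c.linearIndependent.map' C.subtype C.ker_subtype, fun h => ?_⟩, fun h => ?_⟩
    · exact hw (Submodule.mem_inf.1 (hsC h)).2
    · rw [Fin.range_cons, Submodule.mem_span_insert] at h
      obtain ⟨a, z, hz, hz'⟩ := h
      have hzC := hsC hz
      have h1 : N u = a • u := by
        rw [hz', map_add, map_smul, LinearMap.mem_ker.1 (Submodule.mem_inf.1 hzC).2, add_zero, ← hu, ← hz']
      rw [hu, hNN, ← hu] at h1
      have ha : a = 0 := (smul_eq_zero.1 h1.symm).resolve_right hw
      rw [ha, zero_smul, zero_add] at hz'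
      exact hw (Submodule.disjoint_def.1 hC₀.disjoint u (Submodule.mem_span_singleton_self u)
        (hz' ▸ (Submodule.mem_inf.1 hzC).1))
  let g : Mn := Matrix.of fun i j => col j i
  have hdet : g.det ≠ 0 := by
    rw [← isUnit_iff_ne_zero, ← Matrix.isUnit_iff_isUnit_det, ← Matrix.linearIndependent_cols_iff_isUnit]
    exact hli
  refine ⟨g, hdet, ?_⟩
  ext i j
  show N (col j) i = _
  rcases eq_or_ne j 1 with rfl | hj
  · rw [Matrix.mul_single_apply_same]
    simp [g, col, hu]
  · rw [Matrix.mul_single_apply_of_ne _ _ _ _ _ hj]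
    induction j using Fin.cases with
    | zero => exact congrFun (hNN w) i
    | succ j =>
      induction j using Fin.cases with
      | zero => exact absurd rfl hj
      | succ j => exact congrFun (LinearMap.mem_ker.1 (Submodule.mem_inf.1 (c j).2).2) i

/-- Matrices commuting with `E₀₁`, in coordinates. -/
def mk (c b : F) (a d : Fin m → F) (M : Matrix (Fin m) (Fin m) F) : Mn :=
  Matrix.of (Fin.cons (Fin.cons c (Fin.cons b a))
    (Fin.cons (Fin.cons 0 (Fin.cons c 0)) (fun i => Fin.cons 0 (Fin.cons (d i) (M i)))))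

theorem det_mk (c b : F) (a d : Fin m → F) (M : Matrix (Fin m) (Fin m) F) :
    (mk c b a d M).det = c * c * M.det := by
  rw [Matrix.det_succ_column_zero, Fin.sum_univ_succ]
  have h0 : ∀ i : Fin (m + 1), mk c b a d M i.succ 0 = 0 := by
    intro i
    induction i using Fin.cases <;> rfl
  rw [Finset.sum_eq_zero (fun i _ => by rw [h0 i]; ring), add_zero]
  rw [Matrix.det_succ_row_zero, Fin.sum_univ_succ]
  rw [Finset.sum_eq_zero (fun i _ => by
    have : ((mk c b a d M).submatrix (Fin.succAbove 0) Fin.succ) 0 i.succ = 0 := rfl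
    rw [this]; ring), add_zero]
  simp [mk, Matrix.submatrix, mul_assoc]
  exact Or.inl rfl

theorem commute_iff (g : Mn) :
    g * Matrix.single 0 1 1 = Matrix.single 0 1 1 * g ↔
      ∃ c b a d M, g = mk c b a d M := by
  constructor
  · intro h
    have e := fun i j => congrFun (congrFun h i) j
    have h00 : g 1 1 = g 0 0 := by
      have := e 0 1
      rwa [Matrix.mul_single_apply_same, Matrix.single_mul_apply_same, mul_one, one_mul, eq_comm] at this
    have hrow : ∀ j, j ≠ 1 → g 1 j = 0 := fun j hj => by
      have := e 0 j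
      rw [Matrix.mul_single_apply_of_ne _ _ _ _ _ hj, Matrix.single_mul_apply_same, one_mul] at this
      exact this.symm
    have hcol : ∀ i, i ≠ 0 → g i 0 = 0 := fun i hi => by
      have := e i 1
      rw [Matrix.mul_single_apply_same, Matrix.single_mul_apply_of_ne _ _ _ _ _ hi, mul_one] at this
      exact this
    refine ⟨g 0 0, g 0 1, fun j => g 0 j.succ.succ, fun i => g i.succ.succ 1,
      Matrix.of fun i j => g i.succ.succ j.succ.succ, ?_⟩
    ext i j
    induction i using Fin.cases with
    | zero =>
      induction j using Fin.cases with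
      | zero => rfl
      | succ j =>
        induction j using Fin.cases with
        | zero => rfl
        | succ j => rfl
    | succ i =>
      induction i using Fin.cases with
      | zero =>
        induction j using Fin.cases with
        | zero => exact hcol _ (by simp)
        | succ j =>
          induction j using Fin.cases with
          | zero => exact h00
          | succ j => exact hrow _ (fun h => absurd (Fin.succ_inj.mp h) (Fin.succ_ne_zero j))
      | succ i =>
        induction j using Fin.cases with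
        | zero => exact hcol _ (Fin.succ_ne_zero _)
        | succ j =>
          induction j using Fin.cases with
          | zero => rfl
          | succ j => rfl
  · rintro ⟨c, b, a, d, M, rfl⟩
    ext i j
    rcases eq_or_ne i 0 with rfl | hi
    · rw [Matrix.single_mul_apply_same, one_mul]
      rcases eq_or_ne j 1 with rfl | hj
      · rw [Matrix.mul_single_apply_same, mul_one]; rfl
      · rw [Matrix.mul_single_apply_of_ne _ _ _ _ _ hj]
        induction j using Fin.cases with
        | zero => rfl
        | succ j =>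
          induction j using Fin.cases with
          | zero => exact absurd rfl hj
          | succ j => rfl
    · rw [Matrix.single_mul_apply_of_ne _ _ _ _ _ hi]
      rcases eq_or_ne j 1 with rfl | hj
      · rw [Matrix.mul_single_apply_same, mul_one]
        induction i using Fin.cases with
        | zero => exact absurd rfl hi
        | succ i => induction i using Fin.cases <;> rfl
      · rw [Matrix.mul_single_apply_of_ne _ _ _ _ _ hj]

theorem mk_inj {c b c' b' : F} {a d a' d' : Fin m → F} {M M' : Matrix (Fin m) (Fin m) F}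
    (h : mk c b a d M = mk c' b' a' d' M') : c = c' ∧ b = b' ∧ a = a' ∧ d = d' ∧ M = M' := by
  refine ⟨congrFun (congrFun h 0) 0, congrFun (congrFun h 0) (Fin.succ 0),
    funext fun j => congrFun (congrFun h 0) j.succ.succ,
    funext fun i => congrFun (congrFun h i.succ.succ) (Fin.succ 0), ?_⟩
  ext i j
  exact congrFun (congrFun h i.succ.succ) j.succ.succ

variable [Fintype F]

theorem card_centralizer_single :
    Nat.card {g : GL (Fin (m + 2)) F // (g : Mn) * Matrix.single 0 1 1 = Matrix.single 0 1 1 * (g : Mn)} =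
      Fintype.card F ^ (2 * m + 1) * (Fintype.card F - 1) *
        ∏ i : Fin m, (Fintype.card F ^ m - Fintype.card F ^ (i : ℕ)) := by
  classical
  let P := Fˣ × F × (Fin m → F) × (Fin m → F) × GL (Fin m) F
  have hu : ∀ p : P, IsUnit (mk (p.1 : F) p.2.1 p.2.2.1 p.2.2.2.1 (p.2.2.2.2 : Matrix (Fin m) (Fin m) F)) := fun p => by
    rw [Matrix.isUnit_iff_isUnit_det, det_mk]
    exact (p.1.isUnit.mul p.1.isUnit).mul ((Matrix.isUnit_iff_isUnit_det _).mp p.2.2.2.2.isUnit)
  let f : P → {g : GL (Fin (m + 2)) F // (g : Mn) * Matrix.single 0 1 1 = Matrix.single 0 1 1 * (g : Mn)} :=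
    fun p => ⟨(hu p).unit, by rw [IsUnit.unit_spec]; exact (commute_iff _).mpr ⟨_, _, _, _, _, rfl⟩⟩
  have hf : Function.Bijective f := by
    constructor
    · rintro ⟨c, b, a, d, M⟩ ⟨c', b', a', d', M'⟩ h
      have h' := congrArg (fun x => ((x.1 : GL (Fin (m + 2)) F) : Mn)) h
      simp only [f, IsUnit.unit_spec] at h'
      obtain ⟨h1, h2, h3, h4, h5⟩ := mk_inj h'
      rw [Units.ext h1, h2, h3, h4, Units.ext h5]
    · rintro ⟨g, hg⟩
      obtain ⟨c, b, a, d, M, hgm⟩ := (commute_iff _).mp hg
      have hd : IsUnit (c * c * M.det) := by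
        rw [← det_mk c b a d M, ← hgm, ← Matrix.isUnit_iff_isUnit_det]
        exact g.isUnit
      obtain ⟨hc, hM⟩ := IsUnit.mul_iff.mp hd
      refine ⟨⟨(IsUnit.mul_iff.mp hc).1.unit, b, a, d, ((Matrix.isUnit_iff_isUnit_det _).mpr hM).unit⟩, ?_⟩
      apply Subtype.ext
      apply Units.ext
      simp [f, hgm]
  rw [← Nat.card_congr (Equiv.ofBijective f hf)]
  simp only [P, Nat.card_prod, Nat.card_fun, Matrix.card_GL_field]
  rw [Nat.card_units, Nat.card_eq_fintype_card (α := F), Nat.card_eq_fintype_card (α := Fin m), Fintype.card_fin]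
  ring

theorem card_centralizer (t : GL (Fin (m + 2)) F) (hr : ((t : Mn) - 1).rank = 1)
    (hsq : ((t : Mn) - 1) * ((t : Mn) - 1) = 0) :
    Nat.card ↥(Subgroup.centralizer ({t} : Set (GL (Fin (m + 2)) F))) =
      Fintype.card F ^ (2 * m + 1) * (Fintype.card F - 1) *
        ∏ i : Fin m, (Fintype.card F ^ m - Fintype.card F ^ (i : ℕ)) := by
  obtain ⟨g, hgd, hg⟩ := exists_conj (t : Mn) hr hsq
  have hgu : IsUnit g := (Matrix.isUnit_iff_isUnit_det g).mpr (isUnit_iff_ne_zero.mpr hgd)
  set G := hgu.unit with hG
  have hGc : (G : Mn) = g := hgu.unit_spec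
  rw [← card_centralizer_single (F := F) (m := m)]
  refine Nat.card_congr (Equiv.subtypeEquiv (MulAut.conj G⁻¹).toEquiv fun h => ?_)
  rw [Subgroup.mem_centralizer_singleton_iff, ← Units.val_inj]
  simp only [MulEquiv.toEquiv_eq_coe, MulEquiv.coe_toEquiv, MulAut.conj_apply, inv_inv, Units.val_mul]
  set E : Mn := Matrix.single 0 1 1
  set N : Mn := (t : Mn) - 1 with hN
  have hNG : N * (G : Mn) = (G : Mn) * E := by rw [hGc]; exact hg
  have hEG : ((G⁻¹ : GL (Fin (m + 2)) F) : Mn) * N = E * ((G⁻¹ : GL (Fin (m + 2)) F) : Mn) := by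
    calc _ = ((G⁻¹ : GL (Fin (m + 2)) F) : Mn) * (N * (G : Mn)) * ((G⁻¹ : GL (Fin (m + 2)) F) : Mn) := by
          rw [mul_assoc, mul_assoc, Units.mul_inv, mul_one]
      _ = _ := by rw [hNG, ← mul_assoc, Units.inv_mul, one_mul]
  have ht : (t : Mn) = 1 + N := by rw [hN]; abel
  rw [ht, mul_add, add_mul, mul_one, one_mul, add_right_inj]
  constructor
  · intro e
    calc ((G⁻¹ : GL (Fin (m + 2)) F) : Mn) * (h : Mn) * (G : Mn) * E
        = ((G⁻¹ : GL (Fin (m + 2)) F) : Mn) * ((h : Mn) * N) * (G : Mn) := by
          simp only [mul_assoc, hNG]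
      _ = ((G⁻¹ : GL (Fin (m + 2)) F) : Mn) * (N * (h : Mn)) * (G : Mn) := by rw [e]
      _ = _ := by simp only [← mul_assoc, hEG]
  · intro e
    apply (G⁻¹ : GL (Fin (m + 2)) F).isUnit.mul_left_cancel
    apply G.isUnit.mul_right_cancel
    simp only [← mul_assoc, hEG]
    simp only [mul_assoc, hNG]
    simpa only [mul_assoc] using e

end CfsgLib.TransvCent
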